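import Mathlib
import Cfsg.Agent.Lib.Mod88.Heart

/-! A simple group of prime degree `p` with a module of dimension `p + 1` whose restriction to a
complement `E` in `N(P)` is `α + α⁻¹ + t·reg` has a module of dimension at most three. -/

set_option autoImplicit false

open Polynomial Cfsg
open scoped MatrixGroups

namespace H88.Mod

variable {G : Type*} [Group G] {p : ℕ} [hp : Fact p.Prime] {k : Type*} [Field k] [CharP k p]

omit hp in
theorem nat_eq_of_cast {n m : ℕ} (h : (n : k) = m) (hn : n < m + p) (hm : m < p) : n = m := by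
  have h1 : n % p = m % p := (CharP.natCast_eq_natCast k p).1 h
  rw [Nat.mod_eq_of_lt hm] at h1
  have h2 := Nat.div_add_mod n p
  rcases Nat.eq_zero_or_pos (n / p) with h3 | h3
  · rw [h3] at h2; omega
  · have := Nat.le_mul_of_pos_right p h3
    omega

omit hp [CharP k p] in
theorem trace_permRep {Ω : Type*} [Fintype Ω] [DecidableEq Ω] [MulAction G Ω] (g : G) :
    LinearMap.trace k _ (permRep k G Ω g) = ∑ ω : Ω, if g • ω = ω then 1 else 0 := by
  rw [LinearMap.trace_eq_matrix_trace k (Pi.basisFun k Ω), Matrix.trace]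
  refine Finset.sum_congr rfl fun ω _ => ?_
  rw [Matrix.diag_apply, LinearMap.toMatrix_apply, Pi.basisFun_apply, H26.permRep_single,
    Pi.basisFun_repr, Pi.single_apply]
  simp only [eq_comm]

theorem slope_eq_one_iff {E : Type*} [Group E] (a : E →* (ZMod p)ˣ) (g : E) :
    slope k a g = 1 ↔ a g = 1 := by
  rw [Units.ext_iff, Units.ext_iff]
  exact map_eq_one_iff (ZMod.castHom (dvd_refl p) k) (ZMod.castHom (dvd_refl p) k).injective

section homs
variable {E : Type*} [Group E]
omit hp [CharP k p]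

theorem hom_mul_one (β : E →* kˣ) : β * 1 = β := mul_one β
theorem hom_one_mul (β : E →* kˣ) : 1 * β = β := one_mul β
theorem hom_inv_inv (β : E →* kˣ) : β⁻¹⁻¹ = β := inv_inv β
theorem hom_inv_one : (1 : E →* kˣ)⁻¹ = 1 := inv_one (G := E →* kˣ)
theorem hom_inv_ne_one {β : E →* kˣ} (h : β ≠ 1) : β⁻¹ ≠ 1 := (inv_ne_one (α := E →* kˣ)).2 h
theorem hom_inv_mul_inv {β : E →* kˣ} (h : β * β ≠ 1) : β⁻¹ * β⁻¹ ≠ 1 := fun h1 =>
  hom_inv_ne_one h ((mul_inv β β).trans h1)
theorem hom_ne_inv {β : E →* kˣ} (h : β * β ≠ 1) : β ≠ β⁻¹ := fun h1 =>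
  h ((mul_eq_one_iff_eq_inv (G := E →* kˣ)).2 h1)
theorem hom_ne_one {β : E →* kˣ} (h : β * β ≠ 1) : β ≠ 1 := fun h1 =>
  h (by rw [h1, hom_mul_one])

end homs

section dims
variable {E : Type*} [Group E] [Fintype E] {U : Type*} [AddCommGroup U] [Module k U]
  [FiniteDimensional k U]

open Classical in
theorem card_mul_finrank_Eig (hE : (Fintype.card E : k) ≠ 0) (τ : Representation k E U)
    (α β : E →* kˣ) (hd : Module.finrank k U = p + 1)
    (htr : ∀ g, g ≠ 1 → LinearMap.trace k U (τ g) = α g + (α g)⁻¹) :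
    (Fintype.card E : k) * (Module.finrank k (Eig τ β) : k)
      = (if β⁻¹ * α = 1 then (Fintype.card E : k) else 0)
        + (if β⁻¹ * α⁻¹ = 1 then (Fintype.card E : k) else 0) - 1 := by
  rw [finrank_Eig_cast hE, ← sum_hom_units, ← sum_hom_units, ← Finset.sum_add_distrib,
    ← Finset.add_sum_erase _ _ (Finset.mem_univ (1 : E)),
    ← Finset.add_sum_erase _ _ (Finset.mem_univ (1 : E))]
  have h1 : ∑ h ∈ Finset.univ.erase 1, ((β h⁻¹ : kˣ) : k) * LinearMap.trace k U (τ h)
      = ∑ h ∈ Finset.univ.erase 1, (((β⁻¹ * α) h : k) + ((β⁻¹ * α⁻¹) h : k)) :=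
    Finset.sum_congr rfl fun h hh => by
      rw [htr h (Finset.mem_erase.1 hh).1]
      simp [mul_add]
  rw [h1, map_one, LinearMap.trace_one, hd]
  simp only [inv_one, map_one, Units.val_one, one_mul, Nat.cast_add, CharP.cast_eq_zero k p,
    Nat.cast_one]
  ring

theorem finrank_Eig_dims {t : ℕ} (ht : t * Fintype.card E = p - 1) (τ : Representation k E U)
    (α : E →* kˣ) (hα : α * α ≠ 1) (hd : Module.finrank k U = p + 1)
    (htr : ∀ g, g ≠ 1 → LinearMap.trace k U (τ g) = α g + (α g)⁻¹) :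
    Module.finrank k (Eig τ α) = t + 1 ∧ Module.finrank k (Eig τ α⁻¹) = t + 1 ∧
      Module.finrank k (Eig τ 1) = t := by
  have hp1 := hp.out.one_lt
  have h0 : (t : k) * Fintype.card E = -1 := by
    rw [← Nat.cast_mul, ht, Nat.cast_sub hp1.le, CharP.cast_eq_zero k p, Nat.cast_one, zero_sub]
  have hE : (Fintype.card E : k) ≠ 0 := fun h => by simp [h] at h0
  have hα1 : α ≠ 1 := hom_ne_one hα
  have hE2 : 2 ≤ Fintype.card E := by
    by_contra h
    haveI : Subsingleton E := Fintype.card_le_one_iff_subsingleton.1 (by omega)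
    exact hα1 (MonoidHom.ext fun g => by rw [Subsingleton.elim g 1, map_one, map_one])
  have ht0 : 0 < t := Nat.pos_of_ne_zero fun h => by rw [h] at ht; omega
  have ht1 : t * 2 ≤ p - 1 := ht ▸ Nat.mul_le_mul_left t hE2
  have h1 := card_mul_finrank_Eig hE τ α α hd htr
  have h2 := card_mul_finrank_Eig hE τ α α⁻¹ hd htr
  have h3 := card_mul_finrank_Eig hE τ α 1 hd htr
  rw [if_pos (inv_mul_cancel α), if_neg (hom_inv_mul_inv hα)] at h1
  rw [hom_inv_inv, if_neg hα, if_pos (mul_inv_cancel α)] at h2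
  rw [hom_inv_one, hom_one_mul, hom_one_mul, if_neg hα1, if_neg (hom_inv_ne_one hα1)] at h3
  have hle : ∀ β, Module.finrank k (Eig τ β) ≤ p + 1 := fun β => hd ▸ Submodule.finrank_le _
  have k1 : Module.finrank k (Eig τ α) = t + 1 :=
    nat_eq_of_cast (k := k) (p := p) (mul_left_cancel₀ hE (by push_cast; linear_combination h1 - h0))
      (by have := hle α; omega) (by omega)
  refine ⟨k1, nat_eq_of_cast (k := k) (p := p)
    (mul_left_cancel₀ hE (by push_cast; linear_combination h2 - h0))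
      (by have := hle α⁻¹; omega) (by omega), nat_eq_of_cast (k := k) (p := p)
    (mul_left_cancel₀ hE (by linear_combination h3 - h0)) ?_ (by omega)⟩
  have h4 := Submodule.finrank_add_finrank_le_of_disjoint (s := Eig τ α) (t := Eig τ 1)
    (Submodule.disjoint_def.2 fun v h1 h2 => eq_zero_of_mem_Eig hα1 h1 h2)
  omega

end dims

variable [Finite G] {Ω : Type*} [Fintype Ω] [MulAction G Ω] {c : G} {e : ZMod p ≃ Ω}

omit [Finite G] in
theorem finrank_Eig_perm_le {E : Subgroup G} [Fintype E] (a : E →* (ZMod p)ˣ)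
    (ha : ∀ (g : E) j, (g : G) • e j = e (a g * j)) (ha1 : ∀ g, a g = 1 → g = 1) {t : ℕ}
    (ht : t * Fintype.card E = p - 1) (β : E →* kˣ) (hβ : β ≠ 1) :
    Module.finrank k (Eig ((permRep k G Ω).comp E.subtype) β) = t := by
  classical
  have hp1 := hp.out.one_lt
  have h0 : (t : k) * Fintype.card E = -1 := by
    rw [← Nat.cast_mul, ht, Nat.cast_sub hp1.le, CharP.cast_eq_zero k p, Nat.cast_one, zero_sub]
  have hE : (Fintype.card E : k) ≠ 0 := fun h => by simp [h] at h0
  have ht0 : 0 < t := Nat.pos_of_ne_zero fun h => by rw [h] at ht; omega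
  have ht1 : t * 1 ≤ p - 1 := ht ▸ Nat.mul_le_mul_left t Fintype.card_pos
  have hcard : Fintype.card Ω = p := by rw [← Fintype.card_congr e, ZMod.card]
  have h1 := finrank_Eig_cast hE ((permRep k G Ω).comp E.subtype) β
  have h2 := sum_hom_units β⁻¹
  rw [if_neg (hom_inv_ne_one hβ), ← Finset.add_sum_erase _ _ (Finset.mem_univ (1 : E))] at h2
  rw [← Finset.add_sum_erase _ _ (Finset.mem_univ (1 : E)), map_one, LinearMap.trace_one,
    Module.finrank_fintype_fun_eq_card, hcard, CharP.cast_eq_zero k p, mul_zero, zero_add] at h1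
  have h3 : ∑ h ∈ Finset.univ.erase 1, ((β h⁻¹ : kˣ) : k) *
      LinearMap.trace k _ (((permRep k G Ω).comp E.subtype) h)
      = ∑ h ∈ Finset.univ.erase 1, (β⁻¹ h : k) := Finset.sum_congr rfl fun h hh => by
    have h4 : LinearMap.trace k _ (permRep k G Ω h) = 1 := by
      rw [trace_permRep, Finset.sum_eq_single (e 0), if_pos (by rw [ha, mul_zero])]
      · intro ω _ hω
        obtain ⟨j, rfl⟩ := e.surjective ω
        rw [if_neg]
        intro h5
        rw [ha] at h5
        have h6 := e.injective h5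
        have h7 : j ≠ 0 := fun h => hω (by rw [h])
        exact (Finset.mem_erase.1 hh).1 (ha1 h (Units.ext (mul_right_cancel₀ h7
          (by rw [h6, Units.val_one, one_mul]))))
      · simp
    change _ * LinearMap.trace k _ (permRep k G Ω h) = _
    rw [h4, mul_one, map_inv]
    rfl
  rw [h3] at h1
  refine nat_eq_of_cast (k := k) (p := p) (mul_left_cancel₀ hE ?_) ?_ (by omega)
  · rw [map_one, Units.val_one] at h2
    linear_combination h1 + h2 - h0
  · have := Submodule.finrank_le (Eig ((permRep k G Ω).comp E.subtype) β)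
    rw [Module.finrank_fintype_fun_eq_card, hcard] at this
    omega

theorem exists_pgl_of_hom [IsAlgClosed k] [IsSimpleGroup G] (hp7 : 6 < p)
    (hc : ∀ j, c • e j = e (j + 1)) (hco : orderOf c = p) (hsq : ¬ p ^ 2 ∣ Nat.card G)
    (haff : ¬ ∀ g : G, ∃ m b : ZMod p, ∀ j, g • e j = e (m * j + b))
    {E : Subgroup G} [Fintype E] (a : E →* (ZMod p)ˣ)
    (ha : ∀ (g : E) j, (g : G) • e j = e (a g * j)) (ha1 : ∀ g, a g = 1 → g = 1) {t : ℕ}
    (ht : t * Fintype.card E = p - 1) {U : Type*} [AddCommGroup U] [Module k U]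
    [FiniteDimensional k U] (ρ : Representation k G U) (hd : Module.finrank k U = p + 1)
    (β : E →* kˣ) (hβ : β ≠ 1) (hn : t < Module.finrank k (Eig (ρ.comp E.subtype) β))
    (Φ : (permSumZero k G Ω).toSubmodule →ₗ[k] U) (hΦ0 : Φ ≠ 0)
    (hΦ : ∀ g x, ρ g (Φ x) = Φ ((permSumZero k G Ω).toRepresentation g x)) :
    ∃ σ : G →* PGL(2, k), σ c ≠ 1 := by
  classical
  let I := (permSumZero k G Ω).toSubmodule
  have hI : I = (permSumZero k G Ω).toSubmodule := rfl
  set τ := (permSumZero k G Ω).toRepresentation with hτ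
  have hcard : Fintype.card Ω = p := by rw [← Fintype.card_congr e, ZMod.card]
  have hE : (Fintype.card E : k) ≠ 0 := fun h => by
    have h1 : p ∣ p - 1 := ht ▸ Dvd.dvd.mul_left ((CharP.cast_eq_zero_iff k p _).1 h) t
    exact absurd (Nat.le_of_dvd (by omega) h1) (by omega)
  have h1 : Module.finrank k I < p := by
    rw [← hcard, ← Module.finrank_fintype_fun_eq_card k]
    refine Submodule.finrank_lt fun h => ?_
    have : (Pi.single (e 0) 1 : Ω → k) ∈ I := h ▸ trivial
    rw [hI, H26.mem_permSumZero] at this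
    simp at this
  have h2 : p ≤ Module.finrank k I + 1 := by
    let s : (Ω → k) →ₗ[k] k := ∑ ω, LinearMap.proj ω
    have h3 := s.finrank_range_add_finrank_ker
    have h4 : LinearMap.ker s = I := by
      ext x
      rw [hI, H26.mem_permSumZero, LinearMap.mem_ker]
      simp [s, LinearMap.sum_apply]
    have h5 := Submodule.finrank_le (LinearMap.range s)
    rw [Module.finrank_self] at h5
    rw [h4, Module.finrank_fintype_fun_eq_card, hcard] at h3
    omega
  have h3 : Module.finrank k (LinearMap.ker Φ) < Module.finrank k I :=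
    Submodule.finrank_lt fun h => hΦ0 (LinearMap.ker_eq_top.1 h)
  have h4 : Module.finrank k (LinearMap.ker Φ) ≤ 1 := by
    by_contra h
    have h5 : Module.finrank k ((LinearMap.ker Φ).map I.subtype) = _ :=
      Submodule.finrank_map_subtype_eq I (LinearMap.ker Φ)
    refine haff (H26.affine_of_invariant hc ((LinearMap.ker Φ).map I.subtype) ?_
      (le_trans (not_le.1 h) h5.ge) (le_trans (Nat.add_le_add_right h5.le 2)
        (le_trans (Nat.add_le_add_right h3 1) h1)))
    rintro g _ ⟨x, hx, rfl⟩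
    exact ⟨τ g x, by
      change Φ (τ g x) = 0
      rw [← hΦ, LinearMap.mem_ker.1 hx, map_zero], rfl⟩
  have h5 : _ = Module.finrank k I := Φ.finrank_range_add_finrank_ker
  have h6 := (LinearMap.range Φ).finrank_quotient_add_finrank
  let κ := ρ.quotient (LinearMap.range Φ) (by
    rintro g _ ⟨x, rfl⟩
    exact ⟨τ g x, (hΦ g x).symm⟩)
  refine (exists_pgl hco hsq _ _ κ rfl (by omega) fun h => ?_).2
  have h7 : κ.ker = ⊤ := (Subgroup.Normal.eq_bot_or_eq_top inferInstance).resolve_left fun h8 => by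
    have : c ∈ κ.ker := h
    rw [h8, Subgroup.mem_bot] at this
    rw [this, orderOf_one] at hco
    omega
  have h8 : Eig (ρ.comp E.subtype) (1 * β) ≤ LinearMap.range Φ := by
    intro v hv
    obtain ⟨g, hg⟩ := DFunLike.ne_iff.1 hβ
    have h9 : κ g = 1 := show (g : G) ∈ κ.ker from h7 ▸ trivial
    have h10 : ρ g v - v ∈ LinearMap.range Φ :=
      (Submodule.Quotient.eq _).1 (LinearMap.congr_fun h9 (Submodule.Quotient.mk v))
    have h11 : ρ g v = (β g : k) • v := by simpa using hv g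
    rw [h11, ← one_smul k v, smul_smul, mul_one, ← sub_smul] at h10
    exact (Submodule.smul_mem_iff _ (sub_ne_zero.2 fun h => hg (Units.ext h))).1 h10
  have h9 := finrank_Eig_le hE (τ := τ.comp E.subtype) (γ := 1) (f := Φ)
    (fun h x => by simpa using hΦ h x) h8
  rw [hom_one_mul] at h9
  have h10 : Module.finrank k (Eig (τ.comp E.subtype) β) ≤ t := by
    rw [← finrank_Eig_perm_le a ha ha1 ht β hβ, ← Submodule.finrank_map_subtype_eq I]
    refine Submodule.finrank_mono ?_
    rintro _ ⟨x, hx, rfl⟩ g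
    exact congrArg Subtype.val (hx g)
  omega

theorem exists_pgl_of_plus_one [IsAlgClosed k] [IsSimpleGroup G] (hp7 : 6 < p)
    (hc : ∀ j, c • e j = e (j + 1)) (hco : orderOf c = p) (hsq : ¬ p ^ 2 ∣ Nat.card G)
    (haff : ¬ ∀ g : G, ∃ m b : ZMod p, ∀ j, g • e j = e (m * j + b))
    {E : Subgroup G} [Fintype E]
    (hNE : ∀ n ∈ Subgroup.normalizer (Subgroup.zpowers c : Set G), ∃ i : ℕ, ∃ g ∈ E, n = c ^ i * g)
    (a : E →* (ZMod p)ˣ) (ha : ∀ (g : E) j, (g : G) • e j = e (a g * j))
    (hconj : ∀ g : E, g * c * (g : G)⁻¹ = c ^ (a g : ZMod p).val)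
    (ha1 : ∀ g, a g = 1 → g = 1) (ha2 : a * a ≠ 1) {t : ℕ}
    (ht : t * Fintype.card E = p - 1) {U : Type*} [AddCommGroup U] [Module k U]
    [FiniteDimensional k U] (ρ : Representation k G U) (hd : Module.finrank k U = p + 1)
    (htr : ∀ g : E, g ≠ 1 → LinearMap.trace k U (ρ g) = slope k a g + (slope k a g)⁻¹) :
    ∃ σ : G →* PGL(2, k), σ c ≠ 1 := by
  classical
  have hcp : c ^ p = 1 := by rw [← hco, pow_orderOf_eq_one]
  set α := slope k a with hαd
  have hα : α * α ≠ 1 := fun h => ha2 (MonoidHom.ext fun g => by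
    have h1 : slope k (a * a) g = 1 := by
      rw [← MonoidHom.one_apply (N := kˣ) g, ← h]
      exact map_mul (Units.map (ZMod.castHom (dvd_refl p) k : ZMod p →* k)) _ _
    exact (slope_eq_one_iff _ g).1 h1)
  have hα1 : α ≠ 1 := hom_ne_one hα
  have hE : (Fintype.card E : k) ≠ 0 := fun h => by
    have h1 : p ∣ p - 1 := ht ▸ Dvd.dvd.mul_left ((CharP.cast_eq_zero_iff k p _).1 h) t
    exact absurd (Nat.le_of_dvd (by omega) h1) (by omega)
  obtain ⟨d1, d2, d3⟩ := finrank_Eig_dims ht (ρ.comp E.subtype) α hα hd htr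
  obtain ⟨w0, hw0, hw1, hw2⟩ := exists_eps_eq (by omega) ρ hcp
  have hε : ∀ (h : E) x, (ρ.comp E.subtype) h (eps p ρ c x)
      = (α h : k) • eps p ρ c ((ρ.comp E.subtype) h x) := fun h x => by
    rw [hαd, slope_val]
    exact LinearMap.congr_fun (rho_mul_eps ρ hcp (not_dvd_val (a h)) (hconj h)) x
  obtain ⟨v, hv, hvy⟩ : ∃ v ∈ Eig (ρ.comp E.subtype) α, v ∉ LinearMap.range (ρ c - 1) := by
    by_contra h
    push Not at h
    have h1 := finrank_Eig_le hE (β := 1) hε fun v hv => by
      obtain ⟨x, rfl⟩ := h v (by rwa [hom_mul_one] at hv)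
      obtain ⟨x, rfl⟩ := hw0.2 x
      exact ⟨x, by rw [hw1]; rfl⟩
    rw [hom_mul_one] at h1
    omega
  obtain ⟨w, hw, hwne, hwy⟩ : ∃ w ∈ Eig (ρ.comp E.subtype) α⁻¹, w ≠ 0 ∧ (ρ c - 1) w = 0 := by
    by_contra h
    push Not at h
    have h1 := LinearMap.finrank_le_finrank_of_injective
      (f := (eps p ρ c).restrict (p := Eig (ρ.comp E.subtype) α⁻¹) (q := Eig (ρ.comp E.subtype) 1)
        fun x hx => (show α * α⁻¹ = 1 from mul_inv_cancel α) ▸ map_mem_Eig hε hx)
      ((injective_iff_map_eq_zero _).2 fun x hx => Subtype.ext (by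
        by_contra h2
        have h3 : eps p ρ c x = 0 := congrArg Subtype.val hx
        rw [hw2, Module.End.mul_apply] at h3
        exact h x x.2 h2 (hw0.1 (h3.trans (map_zero w0).symm))))
    omega
  have hYg : ∀ (g : E) x, ρ g (((ρ c - 1) ^ (p - 1)) x) = ((ρ c - 1) ^ (p - 1)) (ρ g x) :=
    fun g x => LinearMap.congr_fun (rho_mul_norm ρ hcp (hconj g)) x
  by_cases hY : ((ρ c - 1) ^ (p - 1)) v = 0
  · obtain ⟨Φ, h1, h2⟩ := exists_hom_sumZero (by omega) hc hco hsq hNE a ha hconj ρ hv hY hvy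
    exact exists_pgl_of_hom hp7 hc hco hsq haff a ha ha1 ht ρ hd α hα1 (by omega) Φ h1 h2
  have hwY : w ∉ LinearMap.range ((ρ c - 1) ^ (p - 1)) := by
    rintro ⟨x, hx⟩
    have hYv : ((ρ c - 1) ^ (p - 1)) v ∈ Eig (ρ.comp E.subtype) α := fun g => by
      have h1 : ρ g v = (α g : k) • v := hv g
      change ρ g _ = _
      rw [hYg, h1, map_smul]
    have key : ∀ s r : k, ((ρ c - 1) ^ (p - 1)) (s • v + r • x) = 0 → s = 0 ∧ r = 0 := by
      intro s r h
      rw [map_add, map_smul, map_smul, hx] at h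
      have h1 : s • ((ρ c - 1) ^ (p - 1)) v = 0 :=
        eq_zero_of_mem_Eig (hom_ne_inv hα)
          (Submodule.smul_mem _ s hYv) (by
            rw [eq_neg_of_add_eq_zero_left h]
            exact neg_mem (Submodule.smul_mem _ r hw))
      rw [h1, zero_add] at h
      exact ⟨(smul_eq_zero.1 h1).resolve_right hY, (smul_eq_zero.1 h).resolve_right hwne⟩
    have hli : LinearIndependent k ![v, x] :=
      LinearIndependent.pair_iff.2 fun s r h => key s r (by rw [h, map_zero])
    have h1 : (ρ c - 1) ^ (p - 1 + 1) = 0 := by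
      rw [Nat.sub_add_cancel (by omega)]; exact sub_one_pow_p ρ hcp
    have h2 := LinearMap.finrank_le_finrank_of_injective
      (Psi_injective h1 (Submodule.span k (Set.range ![v, x])) fun z hz h => by
        obtain ⟨s, rfl⟩ := (Submodule.mem_span_range_iff_exists_fun k).1 hz
        simp only [Fin.sum_univ_two, Matrix.cons_val_zero, Matrix.cons_val_one] at h ⊢
        obtain ⟨k1, k2⟩ := key _ _ h
        rw [k1, k2, zero_smul, zero_smul, add_zero])
    rw [Module.finrank_pi_fintype, Finset.sum_const, finrank_span_eq_card hli, hd] at h2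
    simp only [Finset.card_univ, Fintype.card_fin, smul_eq_mul] at h2
    omega
  obtain ⟨φ0, hφ1, hφ2⟩ := Submodule.exists_dual_map_eq_bot_of_notMem hwY inferInstance
  have hφ3 : ∀ z, φ0 (((ρ c - 1) ^ (p - 1)) z) = 0 := fun z =>
    (Submodule.mem_bot k).1 (hφ2 ▸ Submodule.mem_map_of_mem (LinearMap.mem_range_self _ z))
  have hd' : Module.finrank k (Module.Dual k U) = p + 1 := by rw [Subspace.dual_finrank_eq, hd]
  have htr' : ∀ g : E, g ≠ 1 → LinearMap.trace k _ (ρ.dual g) = α g + (α g)⁻¹ := fun g hg => by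
    rw [Representation.dual_apply, LinearMap.trace_transpose', ← Subgroup.coe_inv,
      htr _ (inv_ne_one.2 hg), map_inv, inv_inv, add_comm]
  obtain ⟨d1', -, -⟩ := finrank_Eig_dims ht (ρ.dual.comp E.subtype) α hα hd' htr'
  have hφa : ∀ z, eigProj (ρ.dual.comp E.subtype) α φ0 z
      = (Fintype.card E : k)⁻¹ • ∑ h : E, ((α h⁻¹ : kˣ) : k) • φ0 (ρ (h : G)⁻¹ z) := fun z => by
    rw [eigProj_apply, LinearMap.smul_apply, LinearMap.sum_apply]
    rfl
  obtain ⟨Φ, h1, h2⟩ := exists_hom_sumZero (by omega) hc hco hsq hNE a ha hconj ρ.dual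
    (eigProj_mem (ρ.dual.comp E.subtype) α φ0) (by
      rw [← sum_pow_apply]
      ext z
      have h3 : ∑ i ∈ Finset.range p, ρ (c ^ i)⁻¹ z = ((ρ c - 1) ^ (p - 1)) z := by
        rw [← sum_pow_apply, ← sum_zmod_val (p := p), ← sum_zmod_val (p := p)]
        refine Fintype.sum_equiv (Equiv.neg _) _ _ fun j => ?_
        congr 2
        rw [inv_eq_iff_mul_eq_one, ← pow_add, pow_eq_pow_mod _ hcp, ← ZMod.val_add]
        simp
      rw [LinearMap.sum_apply, LinearMap.zero_apply]
      change ∑ i ∈ Finset.range p, eigProj (ρ.dual.comp E.subtype) α φ0 (ρ (c ^ i)⁻¹ z) = 0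
      rw [← map_sum, h3, hφa, Finset.sum_eq_zero, smul_zero]
      intro h _
      rw [← Subgroup.coe_inv, hYg, hφ3, smul_zero]) (by
      rintro ⟨ψ, hψ⟩
      have h3 := LinearMap.congr_fun hψ w
      have h4 : ρ c w = w := sub_eq_zero.1 hwy
      have h5 : ρ c⁻¹ w = w := by
        conv_lhs => rw [← h4]
        rw [← Module.End.mul_apply, rho_inv_mul, Module.End.one_apply]
      have h6 : ∀ h : E, ((α h⁻¹ : kˣ) : k) • φ0 (ρ (h : G)⁻¹ w) = φ0 w := fun h => by
        have h7 : ρ (h : G)⁻¹ w = ((α⁻¹ h⁻¹ : kˣ) : k) • w := hw h⁻¹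
        rw [h7, map_smul, smul_smul, MonoidHom.inv_apply, Units.mul_inv, one_smul]
      rw [hφa] at h3
      simp only [h6, Finset.sum_const, Finset.card_univ] at h3
      rw [← Nat.cast_smul_eq_nsmul k, smul_smul, inv_mul_cancel₀ hE, one_smul] at h3
      apply hφ1
      rw [← h3]
      change ψ (ρ c⁻¹ w) - ψ w = 0
      rw [h5, sub_self])
  exact exists_pgl_of_hom hp7 hc hco hsq haff a ha ha1 ht ρ.dual hd' α hα1 (by omega) Φ h1 h2

end H88.Mod
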